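import Cfsg.Agent.FM.RL
import Cfsg.Agent.Fi.XR2
import Cfsg.Agent.Cl.OQuad
import Cfsg.Agent.Cl.OLowU

/-! Groups permuting blocks labelled by the vectors of norm one of an orthogonal space over the field with
three elements. -/

set_option autoImplicit false

namespace Cfsg.Agent.FM

open Cfsg Cfsg.Agent.GT Subgroup Mdl Cfsg.Agent.Fi Cfsg.Agent.Cl Cfsg.Agent.Cl.Orth

theorem exists_hom_of_rel {H X : Type*} [Group H] [Group X] (R : H → X → Prop)
    (hm : ∀ a b x y, R a x → R b y → R (a * b) (x * y)) (hu : ∀ a x y, R a x → R a y → x = y)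
    (he : ∀ a, ∃ x, R a x) : ∃ φ : H →* X, ∀ a, R a (φ a) := by
  choose f hf using he
  exact ⟨MonoidHom.mk' f fun a b => hu _ _ _ (hf _) (hm _ _ _ _ (hf a) (hf b)), hf⟩

section

variable {V : Type*} [AddCommGroup V] [Module (ZMod 3) V] {Q : QuadraticForm (ZMod 3) V}
  [FiniteDimensional (ZMod 3) V] (hB : BNondeg Q) (hV : 5 ≤ Module.finrank (ZMod 3) V)
include hB hV

theorem cent_EG {g : OG Q} (h : ∀ η ∈ EG Q, g * η = η * g) : g = 1 ∨ g = negO Q := by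
  obtain ⟨e, f, -, -, H, -⟩ := exists_two_hyp_three hB hV
  obtain ⟨w, w1, w2, hw⟩ := H.exists_nonsing hB.rad0 (by omega)
  obtain ⟨y, hy⟩ := hB.exists_B_ne (u := w) (by rintro rfl; simp at hw)
  rw [← B_pr w1 w2] at hy
  obtain ⟨c, hc, hg⟩ := H.scalar_of_center hB.rad0 (by omega) w1 (pr_e H y) hy g h
  rcases mul_self_eq_one_iff.mp hc with rfl | rfl
  · exact Or.inl (OG.ext' fun x => by simp [hg])
  · exact Or.inr (OG.ext' fun x => by simp [hg, negO_apply])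

theorem mem_cen_OG {g : OG Q} : g ∈ center (OG Q) ↔ g = 1 ∨ g = negO Q :=
  ⟨fun h => cent_EG hB hV fun η _ => (mem_center_iff.1 h η).symm, by
    rintro (rfl | rfl)
    exacts [one_mem _, mem_center_iff.2 xr_negO_comm]⟩

theorem card_cen_OG : Nat.card (center (OG Q)) = 2 := by
  obtain ⟨e, f, -, -, h, -⟩ := exists_two_hyp_three hB hV
  rw [Nat.card_eq_two_iff' (1 : center (OG Q))]
  refine ⟨⟨negO Q, (mem_cen_OG hB hV).2 (.inr rfl)⟩, fun h1 => ?_, fun g hg => Subtype.ext ?_⟩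
  · have := congrArg (fun g : center (OG Q) => B Q f (g.1.1 e)) h1
    simp only [negO_apply, map_neg, h.hfe, OneMemClass.coe_one, LinearEquiv.coe_one, id] at this
    exact absurd this (by decide)
  · exact ((mem_cen_OG hB hV).1 g.2).resolve_left fun e => hg (Subtype.ext e)

theorem blk_hom {G : Type*} [Group G] [Finite G] (Bl : V → Set G) (h0 : ∀ v, Q v = 1 → (Bl v).Nonempty)
    (h1 : ∀ v w, Q v = 1 → Q w = 1 → ∀ t ∈ Bl v, t ∈ Bl w → refl Q v = refl Q w) (h2 : ∀ v, Bl (-v) = Bl v)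
    {H : Subgroup G} {S : Set G} (hS : H ≤ closure S)
    (hg : ∀ s ∈ S, ∃ η : OG Q, ∀ v, Q v = 1 → ∀ t ∈ Bl v, s * t * s⁻¹ ∈ Bl (η.1 v)) :
    ∃ φ : H →* OG Q ⧸ center (OG Q), ∀ g ∈ φ.ker, ∀ v, Q v = 1 → ∀ t ∈ Bl v, g * t * (g : G)⁻¹ ∈ Bl v := by
  let R : G → OG Q → Prop := fun s η => ∀ v, Q v = 1 → ∀ t ∈ Bl v, s * t * s⁻¹ ∈ Bl (η.1 v)
  have hm : ∀ a b x y, R a x → R b y → R (a * b) (x * y) := fun a b x y ha hb v hv t ht => by
    have := ha _ (by rw [OG.Q_apply, hv]) _ (hb v hv t ht)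
    rwa [show a * (b * t * b⁻¹) * a⁻¹ = a * b * t * (a * b)⁻¹ by group] at this
  have he : ∀ a ∈ closure S, ∃ η, R a η := fun a ha => by
    rw [← mem_toSubmonoid, closure_toSubmonoid_of_finite] at ha
    induction ha using Submonoid.closure_induction with
    | mem s hs => exact hg s hs
    | one => exact ⟨1, fun v _ t ht => by simpa using ht⟩
    | mul a b _ _ ia ib => exact let ⟨x, hx⟩ := ia; let ⟨y, hy⟩ := ib; ⟨_, hm _ _ _ _ hx hy⟩
  obtain ⟨φ, hφ⟩ := exists_hom_of_rel (fun (a : H) (x : OG Q ⧸ center (OG Q)) => ∃ η : OG Q, η = x ∧ R a η)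
    (by rintro a b _ _ ⟨x, rfl, hx⟩ ⟨y, rfl, hy⟩; exact ⟨x * y, rfl, hm _ _ _ _ hx hy⟩)
    (by
      rintro a _ _ ⟨x, rfl, hx⟩ ⟨y, rfl, hy⟩
      refine QuotientGroup.eq.2 ((mem_cen_OG hB hV).2 (cent_EG hB hV fun η hη => ?_))
      refine (show RG Q 1 ≤ C1[x⁻¹ * y] from (closure_le _).2 ?_) (EG_le_RG hB hV one_ne_zero hη) _ rfl
      rintro _ ⟨v, hv, rfl⟩
      obtain ⟨t, ht⟩ := h0 v hv
      have := h1 _ _ (by rw [OG.Q_apply, hv]) (by rw [OG.Q_apply, hv]) _ (hx v hv t ht) (hy v hv t ht)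
      rw [← conj_refl, ← conj_refl] at this
      refine mem_cent1.2 ?_
      calc _ = x⁻¹ * (x * refl Q v * x⁻¹) * y := by group
        _ = _ := by rw [this]; group)
    fun a => let ⟨η, h⟩ := he a (hS a.2); ⟨η, η, rfl, h⟩
  refine ⟨φ, fun g hg v hv t ht => ?_⟩
  obtain ⟨η, e, h⟩ := hφ g
  rw [MonoidHom.mem_ker.1 hg, QuotientGroup.eq_one_iff, mem_cen_OG hB hV] at e
  rcases e with rfl | rfl
  exacts [h v hv t ht, h2 v ▸ h v hv t ht]

theorem idx2_struct (hn : negO Q ∈ EG Q) {C : Type*} [Group C] (ψ : C →* OG Q ⧸ center (OG Q))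
    (hr : ψ.range.index = 2) : ∃ M : Subgroup C, ∃ _ : M.Normal, ψ.ker ≤ M ∧ M.index = 2 ∧
      Nonempty (M ⧸ ψ.ker.subgroupOf M ≃* EG Q ⧸ center (EG Q)) := by
  obtain ⟨e, f, -, -, h, -⟩ := exists_two_hyp_three hB hV
  let π := QuotientGroup.mk' (center (OG Q))
  have sπ : Function.Surjective π := QuotientGroup.mk'_surjective _
  have hE : (EG Q).map π = commutator _ := by
    rw [← xr_comm_OG hB hV, map_commutator_eq, MonoidHom.range_eq_top.2 sπ]; rfl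
  have h1 : (EG Q).map π ≤ ψ.range := by
    have := normal_of_index_eq_two hr
    have : IsCyclic (_ ⧸ ψ.range) := isCyclic_of_prime_card (p := 2) hr
    let := IsCyclic.commGroup (α := _ ⧸ ψ.range)
    have := Abelianization.commutator_subset_ker (QuotientGroup.mk' ψ.range)
    rwa [QuotientGroup.ker_mk', ← hE] at this
  have h2 : ((EG Q).map π).index = 4 := by
    rw [index_map_eq _ sπ, (index_RG hB hV one_ne_zero).2]
    rw [QuotientGroup.ker_mk']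
    intro g hg
    rcases (mem_cen_OG hB hV).1 hg with rfl | rfl
    exacts [one_mem _, hn]
  have h3 : (π.comp (EG Q).subtype).ker = center _ := by
    ext g
    rw [h.mem_center_iff hB (by omega), ← mem_cen_OG hB hV]
    exact QuotientGroup.eq_one_iff _
  let θ : ((EG Q).map π).comap ψ →* (EG Q).map π := ψ.subgroupComap _
  refine ⟨((EG Q).map π).comap ψ, hE ▸ inferInstance, fun g hg => ?_, ?_, ⟨?_⟩⟩
  · rw [mem_comap, MonoidHom.mem_ker.1 hg]; exact one_mem _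
  · have := relIndex_mul_index h1
    rw [hr, h2] at this
    rw [index_comap]; omega
  · refine ((QuotientGroup.quotientMulEquivOfEq ?_).trans (QuotientGroup.quotientKerEquivOfSurjective θ ?_)).trans
      (((QuotientGroup.quotientMulEquivOfEq h3.symm).trans (QuotientGroup.quotientKerEquivRange _)).trans
        (MulEquiv.subgroupCongr (by rw [MonoidHom.range_comp, range_subtype]))).symm
    · ext g; exact (Subtype.ext_iff (a1 := θ g) (a2 := 1)).symm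
    · rintro ⟨x, hx⟩
      obtain ⟨g, rfl⟩ := h1 hx
      exact ⟨⟨g, hx⟩, rfl⟩

end

/-- the elliptic form in dimension six. -/
def q6m : List (ℕ × ℕ × ℕ) := [(0, 1, 1), (2, 3, 1), (4, 4, 1), (5, 5, 1)]

theorem bn6m : BNondeg (qL (ZMod 3) 6 q6m) := bnondeg_of_nondegenerate (xr_nondeg (by
  rw [xr_gram (by decide), xr_det_perm (Equiv.swap 0 1 * Equiv.swap 2 3) (fun i => if i < 4 then 1 else 2)
    (by decide +kernel)]
  simp only [map_mul, Equiv.Perm.sign_swap (show (0 : Fin 6) ≠ 1 by decide),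
    Equiv.Perm.sign_swap (show (2 : Fin 6) ≠ 3 by decide)]
  decide))

theorem o6m : Nat.card (OG (qL (ZMod 3) 6 q6m) ⧸ center (OG (qL (ZMod 3) 6 q6m))) = 13063680 ∧
    negO (qL (ZMod 3) 6 q6m) ∈ EG (qL (ZMod 3) 6 q6m) ∧ ∃ (K : Type) (_ : Field K) (_ : Fintype K),
      Fintype.card K = 9 ∧ Nonempty (EG (qL (ZMod 3) 6 q6m) ⧸ center (EG (qL (ZMod 3) 6 q6m)) ≃* PSU 4 K 3) := by
  have hV : Module.finrank (ZMod 3) (Fin 6 → ZMod 3) = 6 := by simp
  let σ : Fin 6 ≃ (Fin 2 ⊕ Fin 2) ⊕ Fin 2 := Equiv.ofBijective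
    ![.inl (.inl 0), .inl (.inr 0), .inl (.inl 1), .inl (.inr 1), .inr 0, .inr 1] (by decide)
  have φ := matEquiv' (Q := qL (ZMod 3) 6 q6m) (quadFormMinus 2 (ZMod 3) 0 1) (LinearEquiv.funCongrLeft _ _ σ)
    fun v => by simp [qL_apply, q6m, cf6, quadFormMinus, σ, sq, add_assoc]
  have ha : Aniso (0 : ZMod 3) 1 := by unfold Aniso; decide
  refine ⟨?_, ?_, ?_⟩
  · have := (center (OG (qL (ZMod 3) 6 q6m))).card_mul_index
    rw [card_cen_OG bn6m (by omega), ← Nat.card_congr φ.toEquiv, Nat.card_congr (oMinus 2 (0 : ZMod 3) 1).toEquiv,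
      card_OG_minus ha] at this
    simp [Finset.prod_range_succ] at this
    change index _ = _
    omega
  · obtain ⟨e, f, -, -, h, -⟩ := exists_two_hyp_three bn6m (by omega)
    let b : Fin 6 → Fin 6 → ZMod 3 := fun i => dv 3 6 (![4, 7, 36, 63, 81, 243] i)
    have hb : ∀ i j, i ≠ j → B (qL (ZMod 3) 6 q6m) (b i) (b j) = 0 := fun i j hij => by
      rw [← bc_eq (by decide)]; revert i j; decide +kernel
    have hq : ∀ i, qL (ZMod 3) 6 q6m (b i) = ![1, 2, 1, 2, 1, 1] i := fun i => by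
      rw [← qc_eq (by decide)]; revert i; decide +kernel
    have h0 : ∀ i, qL (ZMod 3) 6 q6m (b i) ≠ 0 := fun i => by rw [hq]; revert i; decide
    have li : LinearIndependent (ZMod 3) b :=
      LinearMap.linearIndependent_of_isOrthoᵢ (B := B _) (fun i j h => hb i j h) fun i h => by
        have : B (qL (ZMod 3) 6 q6m) (b i) (b i) = 0 := h
        rw [B_self] at this
        exact mul_ne_zero zmod3_two_ne (h0 i) this
    refine (negO_mem_iff bn6m h (by omega) b hb h0 (li.span_eq_top_of_card_eq_finrank (by simp))).2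
      ⟨by decide, 1, ?_⟩
    simp only [hq]; decide
  · have : Fintype (GaloisField 3 2) := Fintype.ofFinite _
    have hF : Fintype.card (GaloisField 3 2) = 9 := by
      rw [← Nat.card_eq_fintype_card, GaloisField.card 3 2 (by decide)]; rfl
    obtain ⟨_, H⟩ := Uni.exists_isFrob (q := Fintype.card (ZMod 3)) (hF.trans (by simp))
    obtain ⟨u⟩ := pomega_six_minus_equiv H ha
    exact ⟨_, _, _, hF, ⟨(pomegaEquiv φ (xr_comm_OG bn6m (by omega))).symm.trans u⟩⟩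

/-- table of blocks: non-empty, disjoint, invariant under the sign. -/
noncomputable def CD.bkTab (c : CD) (n : ℕ) (l : List (ℕ × ℕ × ℕ)) (bl : ℕ → List ℕ) (lab : ℕ → ℕ) (x : ℕ) : Bool :=
  fc (ng6 3 n x) fun y => subL (bl x) (bl y) && (!Nat.beq (qc 3 l x) 1 || !(bl x).isEmpty &&
    M24.lall (bl x) fun p => Nat.blt p c.n && fc (lab p) fun u => Nat.beq u x || Nat.beq u y)

/-- the element acts on the blocks as a reflection. -/
noncomputable def CD.bkAct (c : CD) (n : ℕ) (l : List (ℕ × ℕ × ℕ)) (bl : ℕ → List ℕ) (a : Ex × ℕ × ℕ) : Bool :=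
  Nat.beq (Nat.mod (Nat.mul a.2.1 (qc 3 l a.2.2)) 3) 2 && rng2 (fun x => !Nat.beq (qc 3 l x) 1 ||
    fc (rf6 3 n l a.2.1 a.2.2 x) fun y => subL (lmap (c.ap a.1) (bl x)) (bl y)) 0 (Nat.pow 3 n)

theorem Mdl.blk_hom {G : Type*} [Group G] [Finite G] {D : Set G} {c : CD} (M : Mdl G D c) {n : ℕ}
    {l : List (ℕ × ℕ × ℕ)} (hl : qOk n l) (hB : BNondeg (qL (ZMod 3) n l)) (hn : 5 ≤ n) {bl : ℕ → List ℕ}
    {lab : ℕ → ℕ} (h1 : rng2 (c.bkTab n l bl lab) 0 (3 ^ n) = true) {gs : List (Ex × ℕ × ℕ)}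
    (h2 : ∀ a ∈ gs, c.bkAct n l bl a = true) {H : Subgroup G}
    (hH : H ≤ closure (M.ev '' {a | a ∈ lmap Prod.fst gs})) :
    ∃ φ : H →* OG (qL (ZMod 3) n l) ⧸ center (OG (qL (ZMod 3) n l)), ∀ g ∈ φ.ker, ∀ x < 3 ^ n, qc 3 l x = 1 →
      M.MapS g (ofL (bl x)) (ofL (bl x)) := by
  have k : ∀ x < 3 ^ n, (∀ p ∈ bl x, p ∈ bl (ng6 3 n x)) ∧ (qc 3 l x = 1 → bl x ≠ [] ∧
      ∀ p ∈ bl x, p < c.n ∧ (lab p = x ∨ lab p = ng6 3 n x)) := fun x hx => by
    have := rng2_sound h1 x (Nat.zero_le _) hx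
    simp only [CD.bkTab, fc_eq, Bool.and_eq_true, Bool.or_eq_true, Bool.not_eq_true', M24.lall_iff, Nat.blt_eq,
      Nat.beq_eq, List.isEmpty_eq_false_iff] at this
    exact ⟨subL_spec this.1, fun e => this.2.resolve_left (by simp [e])⟩
  have q1 := fun x => qc_iff (p := 3) hl (c := 1) (by decide) x
  simp only [Nat.cast_one] at q1
  let Bl : (Fin n → ZMod 3) → Set G := fun v => {t | ∃ x < 3 ^ n, dv 3 n x = v ∧ ∃ p ∈ bl x, M.pt p = t}
  have ng : ∀ v, Bl v ⊆ Bl (-v) := by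
    rintro _ _ ⟨x, hx, rfl, p, hp, rfl⟩
    exact ⟨_, ng6_lt x, dv_ng6 x, p, (k x hx).1 p hp, rfl⟩
  obtain ⟨φ, hφ⟩ := FM.blk_hom hB (by simpa using hn) Bl (fun v hv => by
      obtain ⟨x, hx, rfl⟩ := dv_surj three_pos n v
      obtain ⟨p, hp⟩ := List.exists_mem_of_ne_nil _ ((k x hx).2 ((q1 x).2 hv)).1
      exact ⟨_, x, hx, rfl, p, hp, rfl⟩)
    (by
      rintro _ _ hv hw _ ⟨x, hx, rfl, p, hp, rfl⟩ ⟨y, hy, rfl, r, hr, e⟩
      have a : ∀ x < 3 ^ n, qL (ZMod 3) n l (dv 3 n x) = 1 → ∀ p ∈ bl x,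
          refl (qL (ZMod 3) n l) (dv 3 n (lab p)) = refl (qL (ZMod 3) n l) (dv 3 n x) := fun x hx hv p hp => by
        rcases (((k x hx).2 ((q1 x).2 hv)).2 p hp).2 with e | e <;> rw [e]
        rw [dv_ng6, refl_neg]
      rw [← a x hx hv p hp, ← a y hy hw r hr, M.inj _ (((k y hy).2 ((q1 y).2 hw)).2 r hr).1 _
        (((k x hx).2 ((q1 x).2 hv)).2 p hp).1 e])
    (fun v => (by simpa using ng (-v) : Bl (-v) ⊆ Bl v).antisymm (ng v)) hH (by
      rintro _ ⟨_, hb, rfl⟩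
      rw [lmap_eq] at hb
      obtain ⟨a, ha, rfl⟩ := List.mem_map.1 hb
      have := h2 a ha
      simp only [CD.bkAct, Bool.and_eq_true, Nat.beq_eq] at this
      refine ⟨refl _ (dv 3 n a.2.2), ?_⟩
      rintro _ hv _ ⟨x, hx, rfl, p, hp, rfl⟩
      have h3 := rng2_sound this.2 x (Nat.zero_le _) hx
      simp only [(q1 x).2 hv, Nat.beq_refl, Bool.not_true, Bool.false_or, fc_eq, lmap_eq] at h3
      have h4 := (((k x hx).2 ((q1 x).2 hv)).2 p hp).1
      refine ⟨_, rf6_lt _ _ _, dv_rf6 hl ?_ x, _, subL_spec h3 _ (List.mem_map_of_mem hp), by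
        rw [M.ap_eq _ h4, M.pt_ac _ h4]⟩
      rw [← qc_eq hl, ← Nat.cast_mul, ← ZMod.natCast_mod]
      exact congrArg Nat.cast this.1)
  have k2 : ∀ g ∈ φ.ker, ∀ x < 3 ^ n, qc 3 l x = 1 → ∀ p ∈ bl x, M.ac g p ∈ bl x := fun g hg x hx e p hp => by
    obtain ⟨y, hy, e1, r, hr, e2⟩ := hφ g hg _ ((q1 x).1 e) _ ⟨x, hx, rfl, p, hp, rfl⟩
    obtain rfl := dv_inj three_pos hy hx e1
    have h4 := ((k y hx).2 e).2
    exact M.inj _ (h4 r hr).1 _ (M.ac_lt _ (h4 p hp).1) (e2.trans (M.pt_ac _ (h4 p hp).1).symm) ▸ hr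
  refine ⟨φ, fun g hg x hx e y hy => ?_⟩
  rw [testBit_ofL, testBit_ofL, decide_eq_decide]
  exact ⟨fun h => by simpa [M.ac_inv_ac _ hy] using k2 _ (inv_mem hg) x hx e _ h, k2 g hg x hx e y⟩

end Cfsg.Agent.FM
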